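import Cfsg.Agent.H6.Y332.C1.D0

set_option autoImplicit false
set_option maxRecDepth 100000
set_option Elab.async false

namespace Cfsg.H6.Y332.C1

theorem b0 : allR (blk get gs (gwB gwh 128) gd 38723982254506841524162166546190557925717306463733745222549760) 4 659 = true := by decide +kernel

theorem b1 : allR (blk get gs (gwB gwh 128) gd 38723982254506841524162166546190557925717306463733745222549760) 663 638 = true := by decide +kernel

theorem b2 : allR (blk get gs (gwB gwh 128) gd 38723982254506841524162166546190557925717306463733745222549760) 1301 628 = true := by decide +kernel

theorem b3 : allR (blk get gs (gwB gwh 128) gd 38723982254506841524162166546190557925717306463733745222549760) 1929 438 = true := by decide +kernel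

theorem c0 : allR (clo get gc 14080 151744 220) 0 1562 = true := by decide +kernel

theorem c1 : allR (clo get gc 14080 151744 220) 1562 418 = true := by decide +kernel

end Cfsg.H6.Y332.C1
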