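import Cfsg.Agent.H6.Cert
import Cfsg.Agent.H6.Y332.R
import Cfsg.Agent.H6.Y332.C1.B0

set_option autoImplicit false
set_option maxRecDepth 100000

namespace Cfsg.H6.Y332.C1

def sg : List (List ℕ) := [[], [1], [2], [3], [4], [5], [6], [7], [8], [9], [2], [2], [3], [3], [4], [4], [5], [5], [6], [6], [7], [7], [8], [8], [9], [9]]

def BL : List ℕ := [0x20a, 0x30c, 0x40e, 0x510, 0x612, 0x714, 0x816, 0x918, 0x1030103, 0x1040104, 0x1050105, 0x1060106, 0x1070107, 0x1080108, 0x1090109, 0x2040204, 0x2050205, 0x2060206, 0x2070207, 0x2080208, 0x2090209, 0x20102010201, 0x3010301, 0x3050305, 0x3060306, 0x3070307, 0x3080308, 0x3090309, 0x30203020302, 0x4010401, 0x4020402, 0x4060406, 0x4070407, 0x4090409, 0x40304030403, 0x5010501, 0x5020502, 0x5030503, 0x5070507, 0x5090509, 0x50405040504, 0x8010801, 0x8020802, 0x8030803, 0x8060806, 0x8070807, 0x80408040804, 0x6010601, 0x6020602, 0x6030603, 0x6040604, 0x6090609, 0x60506050605, 0x8050805, 0x9010901, 0x9020902, 0x9030903, 0x9040904, 0x9060906, 0x9070907, 0x90809080908, 0x7010701, 0x7020702, 0x7030703, 0x7040704, 0x7050705, 0x7090709, 0x70607060706, 0x40504050405,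 0x40804080408, 0x9050905, 0x30403040304, 0x5080508, 0x50605060506, 0x20302030203, 0x80908090809, 0x10201020102, 0x6080608, 0x60706070607, 0x80605040302010806050403020108060504030201080605040302010806050403020108060504030201080605040302010806050403020108060504030201, 0x7080708, 0x303, 0x202, 0x404, 0x606, 0x101, 0x808, 0x505, 0x707, 0x909, 0x0, 0x90804060504020304090804060504020304090804060504020304090804060504020304090804060504020304090804060504020304090804060504020304090804060504020304090804060504020304090804060504020304, 0x40302040506040809040302040506040809040302040506040809040302040506040809040302040506040809040302040506040809040302040506040809040302040506040809040302040506040809040302040506040809]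

def Sub : List (List ℕ) := [[2], [3], [4], [5], [6], [7], [8], [9]]

theorem hA : prepA 42649378395939397566720 Y332.R sg 38723982254506841524162166546190557925717306463733745222549760 BL Sub get gd = true := by decide +kernel

theorem hw : allR (okW BL gwh) 0 128 = true := by decide +kernel

theorem hb : ∀ b, 4 ≤ b → b < 2367 → blk get gs (gwB gwh 128) gd 38723982254506841524162166546190557925717306463733745222549760 b = true :=
  (range_join (range_join (allR_range b0 (by norm_num : 4 + 659 = 663)) (allR_range b1 (by norm_num : 663 + 638 = 1301))) (range_join (allR_range b2 (by norm_num : 1301 + 628 = 1929)) (allR_range b3 (by norm_num : 1929 + 438 = 2367))))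

def X : List (List ℕ) := [[1], [2], [3], [4], [5], [6], [7], [8], [9]]

theorem hC : prepC sg 38723982254506841524162166546190557925717306463733745222549760 X 9 14080 220 = true := by decide +kernel

theorem hc : ∀ t, 0 ≤ t → t < 9 * 220 → clo get gc 14080 151744 220 t = true :=
  (range_join (allR_range c0 (by norm_num : 0 + 1562 = 1562)) (allR_range c1 (by norm_num : 1562 + 418 = 1980)))

theorem cover {G : Type*} [Group G] {ev : ℕ → G} (hev : Good ev 42649378395939397566720) (hR : Rels ev Y332.R) :
    Cover (gen ev Sub) (gen ev X) 14080 :=
  cert_cover hev hR hA hC hw hb (by norm_num) hc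


end Cfsg.H6.Y332.C1
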